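import Mathlib
import Cfsg.Agent.HallHigmanB.Irreducible
import Cfsg.Agent.FpfAut.NormZero

/-!
# Operators moving an abelian group of order prime to the characteristic
-/

set_option autoImplicit false

open Module

namespace CfsgLib.HallHigmanB

variable {k : Type*} [Field k] [IsAlgClosed k] {V : Type*} [AddCommGroup V] [Module k V]
  {A : Type*} [CommGroup A] [Finite A]

/-- If `τ ^ p ^ (n - 1)` moves a faithfully represented abelian group of order prime to `p`, an operator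
inducing `τ` with `T ^ p ^ n = 1` has `(T - 1) ^ (p ^ n - 1) ≠ 0`. -/
theorem full_degree_of_abelian {p : ℕ} [hp : Fact p.Prime] [CharP k p] (hAk : (Nat.card A : k) ≠ 0)
    (L : A →* Module.End k V) (hinj : Function.Injective L) (τ : MulAut A) (n : ℕ)
    (hτ : τ ^ (p ^ n) = 1) (T : Module.End k V) (hT : T ^ (p ^ n) = 1)
    (hTL : ∀ a, T * L a = L (τ a) * T) (hne : τ ^ (p ^ (n - 1)) ≠ 1) {r : ℕ} (hr : (T - 1) ^ r = 0) :
    p ^ n ≤ r := by
  classical
  letI : Fintype A := Fintype.ofFinite A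
  set P := p ^ n with hP
  have hP0 : 0 < P := pow_pos hp.out.pos n
  obtain ⟨a₀, ha₀⟩ : ∃ a, (τ ^ (p ^ (n - 1))) a ≠ a := by
    by_contra h
    push Not at h
    exact hne (MulEquiv.ext h)
  obtain ⟨χ, w, hw, hw0, hχ⟩ : ∃ (χ : A →* kˣ) (w : V), (∀ z, L z w = (χ z : k) • w) ∧ w ≠ 0 ∧
      χ ((τ ^ (p ^ (n - 1))) a₀) ≠ χ a₀ := by
    by_contra hcon
    push Not at hcon
    refine ha₀ (hinj (sub_eq_zero.1 (CfsgLib.FpfAut.eq_zero_of_eigen hAk L _ fun χ w hw => ?_)))
    rcases eq_or_ne w 0 with rfl | hw0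
    · rw [map_zero]
    · rw [LinearMap.sub_apply, hw, hw, hcon χ w hw hw0, sub_self]
  have hfix : ∀ i, 0 < i → i < P → ∃ a, χ ((τ ^ i) a) ≠ χ a := by
    intro i hi0 hiP
    by_contra h
    push Not at h
    have hc : ∀ (c : ℕ) (a : A), χ ((τ ^ (i * c)) a) = χ a := by
      intro c
      induction c with
      | zero => simp
      | succ c ih =>
        intro a
        rw [Nat.mul_succ, pow_add, MulAut.mul_apply, ih, h]
    obtain ⟨j, hj, hg⟩ := (Nat.dvd_prime_pow hp.out).1 (Nat.gcd_dvd_right i P)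
    have hjn : j < n := by
      have h1 : Nat.gcd i P ≤ i := Nat.gcd_le_left _ hi0
      rw [hg] at h1
      exact (Nat.pow_lt_pow_iff_right hp.out.one_lt).1 (lt_of_le_of_lt h1 hiP)
    have hdvd : Nat.gcd i P ∣ p ^ (n - 1) := hg ▸ pow_dvd_pow p (by omega)
    obtain ⟨c, hc'⟩ : ∃ c, p ^ (n - 1) ≡ i * c [MOD P] := by
      obtain ⟨e, he⟩ := hdvd
      obtain ⟨m, -, hm⟩ := Nat.exists_mul_mod_eq_gcd (n := i) (k := P)
        (lt_of_le_of_lt (Nat.gcd_le_left _ hi0) hiP)
      refine ⟨m * e, ?_⟩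
      rw [he, ← mul_assoc]
      refine Nat.ModEq.mul_right _ ?_
      rw [Nat.ModEq, hm]
      exact Nat.mod_eq_of_lt (lt_of_le_of_lt (Nat.gcd_le_left _ hi0) hiP)
    refine hχ ?_
    have h1 : τ ^ (p ^ (n - 1)) = τ ^ (i * c) := by
      rw [pow_eq_pow_iff_modEq]
      exact Nat.ModEq.of_dvd (orderOf_dvd_of_pow_eq_one hτ) hc'
    rw [h1, hc]
  have hnot : ¬ (T - 1) ^ (P - 1) = 0 := by
    intro h0
    have h1 := LinearMap.congr_fun h0 w
    rw [hP, sub_one_pow_sub_one, LinearMap.sum_apply, LinearMap.zero_apply, ← hP] at h1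
    have h2 : ∑ z : A, ((χ z)⁻¹ : kˣ).val • L z (∑ i ∈ Finset.range P, (T ^ i) w) = 0 := by
      simp [h1]
    simp only [map_sum, Finset.smul_sum] at h2
    rw [Finset.sum_comm, Finset.sum_eq_single_of_mem 0 (Finset.mem_range.2 hP0)] at h2
    · have h3 : ∀ z : A, ((χ z)⁻¹ : kˣ).val • L z ((T ^ 0) w) = w := fun z => by
        rw [pow_zero, Module.End.one_apply, hw, smul_smul, Units.inv_mul, one_smul]
      simp only [h3, Finset.sum_const, Finset.card_univ, ← Nat.cast_smul_eq_nsmul k] at h2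
      rw [← Nat.card_eq_fintype_card] at h2
      exact hw0 ((smul_eq_zero.1 h2).resolve_left hAk)
    · intro i hi hi0
      rw [Finset.mem_range] at hi
      obtain ⟨a, ha⟩ := hfix (P - i) (by omega) (by omega)
      let g : A →* kˣ := MonoidHom.mk' (fun z => (χ z)⁻¹ * χ ((τ ^ (P - i)) z)) fun a b => by
        rw [map_mul, map_mul, map_mul, mul_inv, mul_mul_mul_comm]
      have hg : g ≠ 1 := fun h => ha
        ((inv_mul_eq_one.1 (show (χ a)⁻¹ * χ ((τ ^ (P - i)) a) = 1 from DFunLike.congr_fun h a)).symm)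
      have h4 : ∀ z : A, ((χ z)⁻¹ : kˣ).val • L z ((T ^ i) w) = (g z : k) • (T ^ i) w := fun z => by
        have h5 : L z * T ^ i = T ^ i * L ((τ ^ (P - i)) z) := by
          rw [twist_pow hTL, ← MulAut.mul_apply, ← pow_add, Nat.add_sub_cancel' hi.le, hτ, MulAut.one_apply]
        rw [← Module.End.mul_apply, h5, Module.End.mul_apply, hw, map_smul, smul_smul, ← Units.val_mul]
        rfl
      simp only [h4, ← Finset.sum_smul, sum_char_eq_zero hg, zero_smul]
  by_contra hlt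
  exact hnot (by rw [← Nat.sub_add_cancel (show r ≤ P - 1 by omega), pow_add, hr, mul_zero])

end CfsgLib.HallHigmanB
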